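/-
Helper library (helper54): coded vectors of the symplectic space of dimension 6 over the field with 2 elements,
transvections, and the absence of normal 2-subgroups in `Sp(6, 2)`.
-/
import Cfsg.Agent.Lib.Helper54.U6Code
import Cfsg.Agent.Lib.Helper54.RelIso2
import Cfsg.Agent.Lib.Helper13.Symp
import Cfsg.Agent.S0245
import Cfsg.Agent.S0246
import Cfsg.Agent.S0269
import Cfsg.Agent.S0270
import Cfsg.Agent.S0765

set_option autoImplicit false

namespace Cfsg.Agent.Lib.Helper54.C2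

open Matrix Cfsg Cfsg.Agent.Lib.Helper13 Cfsg.Agent.Lib.Helper27 Cfsg.Agent.Lib.Helper54
open Cfsg.Agent.Lib.Helper54.U6 (forceN forceN_eq)

/-- the symplectic group -/
abbrev U : Type := ↥(Matrix.symplecticGroup (Fin 3) (ZMod 2))

/-- the vectors -/
abbrev V6 : Type := Fin 3 ⊕ Fin 3 → ZMod 2

/-- the symplectic form -/
abbrev sf (x y : V6) : ZMod 2 := Cfsg.sympForm 3 (ZMod 2) x y

/-- the numbering of the coordinates -/
def ix : Fin 3 ⊕ Fin 3 → ℕ
  | .inl i => i.val
  | .inr i => 3 + i.val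

/-- decoding of vectors -/
def dec6 (n : ℕ) : V6 := fun k => ((n / 2 ^ ix k % 2 : ℕ) : ZMod 2)

/-- coding of vectors -/
def enc6 (x : V6) : ℕ := (x (.inl 0)).val + 2 * (x (.inl 1)).val + 4 * (x (.inl 2)).val
  + 8 * (x (.inr 0)).val + 16 * (x (.inr 1)).val + 32 * (x (.inr 2)).val

theorem dec6_enc6 : ∀ x : V6, dec6 (enc6 x) = x := by decide +kernel

theorem enc6_lt : ∀ x : V6, enc6 x < 64 := by decide +kernel

theorem enc6_dec6 : ∀ n < 64, enc6 (dec6 n) = n := by decide +kernel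

theorem dec6_zero : dec6 0 = 0 := by decide +kernel

theorem dec6_inj {n m : ℕ} (hn : n < 64) (hm : m < 64) (h : dec6 n = dec6 m) : n = m := by
  rw [← enc6_dec6 n hn, ← enc6_dec6 m hm, h]

/-- the form on codes -/
def Bc (n m : ℕ) : ℕ := forceN n fun n' => forceN m fun m' => (sf (dec6 n') (dec6 m')).val

theorem sf_dec6 (n m : ℕ) : sf (dec6 n) (dec6 m) = ((Bc n m : ℕ) : ZMod 2) := by
  rw [Bc, forceN_eq, forceN_eq, ZMod.natCast_zmod_val]

/-- the map `x ↦ x + f(x, v) v` -/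
def tf (a : ℕ) (x : V6) : V6 := x + sf x (dec6 a) • dec6 a

/-- the transvection with a coded centre -/
def tvc (a : ℕ) : U := ⟨Cfsg.sympTransvection 3 (dec6 a) 1, sympTransvection_mem _ _⟩

theorem tvc_mulVec (a : ℕ) (x : V6) : (tvc a).1 *ᵥ x = tf a x := by
  show Cfsg.sympTransvection 3 (dec6 a) 1 *ᵥ x = _
  rw [sympTransvection_mulVec, one_mul, tf]

theorem U_one_mulVec (x : V6) : (1 : U).1 *ᵥ x = x := by
  show (1 : Matrix _ _ (ZMod 2)) *ᵥ x = x
  rw [one_mulVec]

theorem U_mul_mulVec (A B : U) (x : V6) : (A * B).1 *ᵥ x = A.1 *ᵥ (B.1 *ᵥ x) := by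
  show (A.1 * B.1) *ᵥ x = _
  rw [mulVec_mulVec]

theorem U_mulVec_inv_mulVec (A : U) (x : V6) : A.1 *ᵥ (A⁻¹.1 *ᵥ x) = x := by
  rw [← U_mul_mulVec, mul_inv_cancel, U_one_mulVec]

theorem U_ext_mulVec {A B : U} (h : ∀ x, A.1 *ᵥ x = B.1 *ᵥ x) : A = B :=
  Subtype.ext (Matrix.ext_of_mulVec_single (fun i => h _))

theorem U_preserves (A : U) (x y : V6) : sf (A.1 *ᵥ x) (A.1 *ᵥ y) = sf x y :=
  (mem_symplecticGroup_iff_preserves A.1).1 A.2 x y

/-- products of transvections -/
def tl (l : List ℕ) : U := (l.map tvc).prod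

theorem tl_mulVec (l : List ℕ) (x : V6) : (tl l).1 *ᵥ x = l.foldr tf x := by
  induction l with
  | nil =>
    have e : tl [] = 1 := by simp [tl]
    rw [e, U_one_mulVec]; rfl
  | cons a l ih =>
    have e : tl (a :: l) = tvc a * tl l := by simp [tl]
    rw [e, U_mul_mulVec, ih, tvc_mulVec, List.foldr_cons]

/-- transvections on codes -/
def tfc (a m : ℕ) : ℕ := forceN m fun m' => enc6 (tf a (dec6 m'))

theorem dec_tfc (a m : ℕ) : dec6 (tfc a m) = tf a (dec6 m) := by
  rw [tfc, forceN_eq, dec6_enc6]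

theorem dec_foldr (l : List ℕ) (m : ℕ) : dec6 (l.foldr tfc m) = l.foldr tf (dec6 m) := by
  induction l with
  | nil => rfl
  | cons n l ih => rw [List.foldr_cons, List.foldr_cons, dec_tfc, ih]

/-! ### normal 2-subgroups -/

theorem card_U : Nat.card U = 1451520 := by
  have h := Cfsg.Agent.S0245.result (F := ZMod 2) (q := 2) (ZMod.card 2) 3
  rw [h]
  decide +kernel

instance finite_U : Finite U := Nat.finite_of_card_ne_zero (by rw [card_U]; norm_num)

theorem U_no_normal_two (N : Subgroup U) (hN : N.Normal) (h2 : IsPGroup 2 N) : N = ⊥ := by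
  have hs : IsSimpleGroup (U ⧸ Subgroup.center U) :=
    Cfsg.Agent.S0270.result (F := ZMod 2) 3 (by norm_num) (by intro h; omega)
  have hp : commutator U = ⊤ := Cfsg.Agent.S0269.result (F := ZMod 2) 3 (Or.inl le_rfl)
  rcases normal_le_center_or_top hs hp N hN with h | h
  · have hc := Cfsg.Agent.S0246.result (F := ZMod 2) (q := 2) (ZMod.card 2) 3 (by norm_num)
    have hc1 : Nat.card (Subgroup.center U) = 1 := by rw [hc]; rfl
    rw [Subgroup.card_eq_one] at hc1
    rw [hc1] at h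
    exact le_bot_iff.1 h
  · exfalso
    have : Fact (Nat.Prime 2) := ⟨Nat.prime_two⟩
    obtain ⟨n, hn⟩ := h2.exists_card_eq
    rw [h, Subgroup.card_top, card_U] at hn
    have h3 : 3 ∣ 2 ^ n := by rw [← hn]; decide
    have h4 := (Nat.Prime.dvd_of_dvd_pow Nat.prime_three h3)
    omega

end Cfsg.Agent.Lib.Helper54.C2
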