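/-
Helper library (helper54): even lattices of rank 24 without roots, given by a Gram matrix: short vectors
modulo two.
-/
import Cfsg.Agent.Lib.Helper54.LeechFrames

set_option autoImplicit false

namespace Cfsg.Agent.Lib.Helper54

open Matrix

section ortho

variable {ι : Type*} [Fintype ι]

theorem card_le_of_pairwise_ortho_gen (φ : (ι → ℤ) → (ι → ℤ)) (F : Finset (ι → ℤ))
    (h0 : ∀ x ∈ F, x ⬝ᵥ φ x ≠ 0) (h : ∀ x ∈ F, ∀ y ∈ F, x ≠ y → x ⬝ᵥ φ y = 0) :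
    F.card ≤ Fintype.card ι := by
  classical
  let v : F → (ι → ℚ) := fun x i => ((x : ι → ℤ) i : ℚ)
  have hli : LinearIndependent ℚ v := by
    rw [Fintype.linearIndependent_iff]
    intro g hg x₀
    have h1 : ∑ i, (∑ x, g x • v x) i * ((φ (x₀ : ι → ℤ) i : ℤ) : ℚ) = 0 := by
      rw [hg]; simp
    have h2 : ∑ i, (∑ x, g x • v x) i * ((φ (x₀ : ι → ℤ) i : ℤ) : ℚ)
        = ∑ x, g x * (((x : ι → ℤ) ⬝ᵥ φ (x₀ : ι → ℤ) : ℤ) : ℚ) := by
      simp only [Finset.sum_apply, Pi.smul_apply, smul_eq_mul, Finset.sum_mul]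
      rw [Finset.sum_comm]
      apply Finset.sum_congr rfl
      intro x _
      unfold dotProduct
      push_cast
      rw [Finset.mul_sum]
      apply Finset.sum_congr rfl
      intro i _
      simp only [v]
      ring
    rw [h2] at h1
    rw [Finset.sum_eq_single x₀] at h1
    · have h3 : (((x₀ : ι → ℤ) ⬝ᵥ φ (x₀ : ι → ℤ) : ℤ) : ℚ) ≠ 0 := by
        exact_mod_cast h0 x₀ x₀.2
      exact (mul_eq_zero.1 h1).resolve_right h3
    · intro x _ hx
      have : (x : ι → ℤ) ⬝ᵥ φ (x₀ : ι → ℤ) = 0 :=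
        h x x.2 x₀ x₀.2 (fun he => hx (Subtype.ext he))
      rw [this]; simp
    · intro hx; exact absurd (Finset.mem_univ _) hx
  have h4 := hli.fintype_card_le_finrank
  rw [Module.finrank_fintype_fun_eq_card, Fintype.card_coe] at h4
  exact h4

theorem card_le_of_ortho_or_neg_gen (φ : (ι → ℤ) → (ι → ℤ)) (F : Finset (ι → ℤ))
    (h0 : ∀ x ∈ F, x ⬝ᵥ φ x ≠ 0) (h : ∀ x ∈ F, ∀ y ∈ F, x ≠ y → x = -y ∨ x ⬝ᵥ φ y = 0) :
    F.card ≤ 2 * Fintype.card ι := by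
  classical
  let 𝒮 : Set (Finset (ι → ℤ)) :=
    {E | E ⊆ F ∧ ∀ x ∈ E, ∀ y ∈ E, x ≠ y → x ⬝ᵥ φ y = 0}
  have hfin : 𝒮.Finite := by
    apply Set.Finite.subset (Finset.finite_toSet F.powerset)
    intro E hE
    exact Finset.mem_coe.2 (Finset.mem_powerset.2 hE.1)
  have hne : 𝒮.Nonempty := ⟨∅, by simp [𝒮]⟩
  obtain ⟨E, hE, hmax⟩ := hfin.exists_maximal hne
  have hE24 : E.card ≤ Fintype.card ι :=
    card_le_of_pairwise_ortho_gen φ E (fun x hx => h0 x (hE.1 hx)) hE.2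
  have hsub : F ⊆ E ∪ E.image (fun x => -x) := by
    intro y hy
    by_contra hcon
    rw [Finset.mem_union, not_or] at hcon
    obtain ⟨hyE, hyN⟩ := hcon
    have hins : insert y E ∈ 𝒮 := by
      refine ⟨Finset.insert_subset hy hE.1, ?_⟩
      have key : ∀ x ∈ E, y ⬝ᵥ φ x = 0 := by
        intro x hx
        have hne : y ≠ x := fun he => hyE (he ▸ hx)
        rcases h y hy x (hE.1 hx) hne with h1 | h1
        · exact absurd (Finset.mem_image.2 ⟨x, hx, h1.symm⟩) hyN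
        · exact h1
      have key' : ∀ x ∈ E, x ⬝ᵥ φ y = 0 := by
        intro x hx
        have hne : x ≠ y := fun he => hyE (he ▸ hx)
        rcases h x (hE.1 hx) y hy hne with h1 | h1
        · exact absurd (Finset.mem_image.2 ⟨x, hx, by rw [h1, neg_neg]⟩) hyN
        · exact h1
      intro a ha b hb hab
      rw [Finset.mem_insert] at ha hb
      rcases ha with rfl | ha <;> rcases hb with rfl | hb
      · exact absurd rfl hab
      · exact key b hb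
      · exact key' a ha
      · exact hE.2 a ha b hb hab
    have := hmax hins (Finset.subset_insert y E)
    exact hyE (this (Finset.mem_insert_self y E))
  calc F.card ≤ (E ∪ E.image (fun x => -x)).card := Finset.card_le_card hsub
    _ ≤ E.card + (E.image (fun x => -x)).card := Finset.card_union_le _ _
    _ ≤ E.card + E.card := Nat.add_le_add_left Finset.card_image_le _
    _ ≤ 2 * Fintype.card ι := by omega

end ortho

section gram

variable {n : Type*} [Fintype n] (B : Matrix n n ℤ)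

theorem gram_symm (hsymm : B.IsSymm) (x y : n → ℤ) : x ⬝ᵥ (B *ᵥ y) = y ⬝ᵥ (B *ᵥ x) := by
  rw [dotProduct_mulVec, ← mulVec_transpose, hsymm.eq, dotProduct_comm]

theorem gram_add_sub (z w : n → ℤ) :
    (w + z) ⬝ᵥ (B *ᵥ (w + z)) + (w - z) ⬝ᵥ (B *ᵥ (w - z))
      = 2 * (w ⬝ᵥ (B *ᵥ w)) + 2 * (z ⬝ᵥ (B *ᵥ z)) := by
  simp only [mulVec_add, mulVec_sub, add_dotProduct, sub_dotProduct, dotProduct_add, dotProduct_sub]
  ring

theorem gram_add_sub' (hsymm : B.IsSymm) (z w : n → ℤ) :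
    (w + z) ⬝ᵥ (B *ᵥ (w - z)) = w ⬝ᵥ (B *ᵥ w) - z ⬝ᵥ (B *ᵥ z) := by
  simp only [mulVec_sub, add_dotProduct, dotProduct_sub]
  rw [gram_symm B hsymm z w]
  ring

theorem gram_neg (x : n → ℤ) : (-x) ⬝ᵥ (B *ᵥ (-x)) = x ⬝ᵥ (B *ᵥ x) := by
  simp [mulVec_neg]

theorem gram_short (hsymm : B.IsSymm) (hpos : ∀ x : n → ℤ, x ≠ 0 → 0 < x ⬝ᵥ (B *ᵥ x))
    (heven : ∀ x : n → ℤ, (2 : ℤ) ∣ x ⬝ᵥ (B *ᵥ x)) (h2 : ∀ x : n → ℤ, x ⬝ᵥ (B *ᵥ x) ≠ 2)
    (x y : n → ℤ) (hx : x ⬝ᵥ (B *ᵥ x) ≤ 8) (hy : y ⬝ᵥ (B *ᵥ y) ≤ 8)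
    (hc : ∀ i, (2 : ℤ) ∣ (x - y) i) :
    y = x ∨ y = -x ∨ (x ⬝ᵥ (B *ᵥ x) = 8 ∧ y ⬝ᵥ (B *ᵥ y) = 8 ∧ x ⬝ᵥ (B *ᵥ y) = 0) := by
  have hge : ∀ w : n → ℤ, w ≠ 0 → 4 ≤ w ⬝ᵥ (B *ᵥ w) := by
    intro w hw
    have h1 := hpos w hw
    have h3 := heven w
    have h4 := h2 w
    omega
  set z : n → ℤ := fun i => (x - y) i / 2 with hz
  set w : n → ℤ := y + z with hw
  have hxw : x = w + z := by
    funext i
    have := Int.mul_ediv_cancel' (hc i)
    simp only [hw, hz, Pi.add_apply, Pi.sub_apply] at this ⊢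
    omega
  have hyw : y = w - z := by
    rw [hw]; abel
  by_cases hz0 : z = 0
  · left
    rw [hxw, hyw, hz0]; simp
  by_cases hw0 : w = 0
  · right; left
    rw [hxw, hyw, hw0]; simp
  right; right
  have h1 := gram_add_sub B z w
  have h3 := gram_add_sub' B hsymm z w
  rw [← hxw, ← hyw] at h1 h3
  have h4 := hge z hz0
  have h5 := hge w hw0
  refine ⟨by omega, by omega, by omega⟩

end gram

end Cfsg.Agent.Lib.Helper54
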