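/-
Helper library (helper54): a concrete field with 25 elements; the number a + 5 b stands for a + b s with s^2 = 2.
-/
import Mathlib

set_option autoImplicit false

namespace Cfsg.Agent.Lib.Helper54

/-- the field with 25 elements -/
structure K25 where
  /-- the code of the element -/
  n : Fin 25
  deriving DecidableEq

namespace K25

/-- the element with a given code -/
def ofN (m : ℕ) : K25 := ⟨⟨m % 25, Nat.mod_lt _ (by decide)⟩⟩

/-- the code -/
def toN (x : K25) : ℕ := x.n.val

instance instFintype : Fintype K25 :=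
  Fintype.ofEquiv (Fin 25) ⟨K25.mk, K25.n, fun _ => rfl, fun _ => rfl⟩

/-- addition -/
def add (x y : K25) : K25 :=
  ofN ((toN x % 5 + toN y % 5) % 5 + 5 * ((toN x / 5 + toN y / 5) % 5))

/-- multiplication -/
def mul (x y : K25) : K25 :=
  ofN (((toN x % 5) * (toN y % 5) + 2 * ((toN x / 5) * (toN y / 5))) % 5
    + 5 * (((toN x % 5) * (toN y / 5) + (toN x / 5) * (toN y % 5)) % 5))

/-- negation -/
def neg (x : K25) : K25 :=
  ofN ((5 - toN x % 5) % 5 + 5 * ((5 - toN x / 5) % 5))

/-- inversion -/
def inv (x : K25) : K25 := ofN (List.getD [0, 1, 3, 2, 4, 15, 9, 11, 14, 6, 20, 7, 17, 18, 8, 5, 22, 12, 13, 23, 10, 24, 16, 19, 21] (toN x) 0)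

instance : Add K25 := ⟨add⟩
instance : Mul K25 := ⟨mul⟩
instance : Neg K25 := ⟨neg⟩
instance : Inv K25 := ⟨inv⟩
instance : Zero K25 := ⟨ofN 0⟩
instance : One K25 := ⟨ofN 1⟩

set_option maxRecDepth 100000 in
instance instField : Field K25 :=
  Field.ofMinimalAxioms K25 (by decide +kernel) (by decide +kernel) (by decide +kernel) (by decide +kernel)
    (by decide +kernel) (by decide +kernel) (by decide +kernel) (by decide +kernel) (by decide +kernel)
    (by decide +kernel)

theorem card_eq : Fintype.card K25 = 25 := by decide +kernel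

theorem card_eq' : Fintype.card K25 = 5 ^ 2 := card_eq

theorem ofN_toN (x : K25) : ofN (toN x) = x := by
  revert x; decide +kernel

theorem toN_lt (x : K25) : toN x < 25 := x.n.isLt

end K25

end Cfsg.Agent.Lib.Helper54
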