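/-
Helper library (helper54): the Leech lattice modulo 2 as a module for `Co0`: generation by minimal vectors, the invariant
quadratic form, faithfulness modulo the centre and irreducibility.
-/
import Cfsg.Agent.Lib.Helper54.Co0Order
import Cfsg.Agent.Lib.Helper54.Co0Sums
import Cfsg.Agent.S0391

set_option autoImplicit false

namespace Cfsg.Agent.Lib.Helper54

open Cfsg Cfsg.Agent.Lib.Helper7 Cfsg.Agent.Lib.Helper27

theorem norm_dvd (x : ↥leechLattice) : (16 : ℤ) ∣ sqNorm (x : GolayPt → ℤ) :=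
  leech_even ((mem_leechLattice_iff _).1 x.2)

theorem dot_dvd (x y : ↥leechLattice) : (8 : ℤ) ∣ dotInt (x : GolayPt → ℤ) (y : GolayPt → ℤ) := by
  have h1 := norm_dvd x
  have h2 := norm_dvd y
  have h3 := norm_dvd (x + y)
  have e : sqNorm ((x + y : ↥leechLattice) : GolayPt → ℤ)
      = sqNorm (x : GolayPt → ℤ) + 2 * dotInt (x : GolayPt → ℤ) (y : GolayPt → ℤ)
        + sqNorm (y : GolayPt → ℤ) := sqNorm_add _ _
  rw [e] at h3
  omega

theorem min_norm (x : ↥leechLattice) (hx : x ≠ 0) : 32 ≤ sqNorm (x : GolayPt → ℤ) :=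
  Cfsg.Agent.S0391.result x x.2 (fun h => hx (Subtype.ext h))

theorem short_types (y : ↥leechLattice) (h : sqNorm (y : GolayPt → ℤ) ≤ 64) :
    y = 0 ∨ sqNorm (y : GolayPt → ℤ) = 32 ∨ sqNorm (y : GolayPt → ℤ) = 48 ∨
      sqNorm (y : GolayPt → ℤ) = 64 := by
  by_cases h0 : y = 0
  · exact Or.inl h0
  · right
    have h1 := min_norm y h0
    have h2 := norm_dvd y
    omega

theorem exists_short (x : ↥leechLattice) :
    ∃ y z : ↥leechLattice, sqNorm (y : GolayPt → ℤ) ≤ 64 ∧ x = y + (z + z) := by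
  obtain ⟨y, hy, hn, z, hz, h⟩ := leech_short_main.1 x x.2
  refine ⟨⟨y, hy⟩, ⟨z, hz⟩, hn, ?_⟩
  apply Subtype.ext
  show (x : GolayPt → ℤ) = y + (z + z)
  rw [← two_smul ℕ z, ← h]; abel

theorem sqNorm_vecOf (f : ℕ → ℤ) : sqNorm (vecOf f) = ∑ i ∈ Finset.range 24, f i ^ 2 := by
  unfold sqNorm
  rw [sum_golayPt]
  apply Finset.sum_congr rfl
  intro i hi
  unfold vecOf
  rw [idx_pt (Finset.mem_range.1 hi)]

theorem gen_norms : ∀ k ∈ Finset.range 49, k = 23 ∨ ∑ i ∈ Finset.range 24, genFn k i ^ 2 ≤ 64 := by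
  decide +kernel

theorem gen23_norm : ∑ i ∈ Finset.range 24, (genFn 23 i - genFn 0 i) ^ 2 ≤ 64 := by
  decide +kernel

/-- an additive subgroup containing the short vectors contains the lattice -/
theorem le_of_short (K : AddSubgroup (GolayPt → ℤ))
    (h : ∀ x ∈ leechLattice, sqNorm x ≤ 64 → x ∈ K) : leechLattice ≤ K := by
  apply leechLattice_le_of_gens
  intro k hk
  rcases gen_norms k (Finset.mem_range.2 hk) with rfl | h1
  · have h0 : vecOf (genFn 0) ∈ K := by
      apply h _ (gen_mem_leech 0 (by norm_num))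
      rw [sqNorm_vecOf]
      rcases gen_norms 0 (by decide) with h2 | h2
      · exact absurd h2 (by norm_num)
      · exact h2
    have h1 : vecOf (fun i => genFn 23 i - genFn 0 i) ∈ K := by
      apply h
      · have e : vecOf (fun i => genFn 23 i - genFn 0 i) = vecOf (genFn 23) - vecOf (genFn 0) := rfl
        rw [e]
        exact leechLattice.sub_mem (gen_mem_leech 23 (by norm_num)) (gen_mem_leech 0 (by norm_num))
      · rw [sqNorm_vecOf]; exact gen23_norm
    have e : vecOf (genFn 23) = vecOf (fun i => genFn 23 i - genFn 0 i) + vecOf (genFn 0) := by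
      funext p
      simp [vecOf]
    rw [e]
    exact K.add_mem h1 h0
  · apply h _ (gen_mem_leech k hk)
    rw [sqNorm_vecOf]; exact h1

/-- an additive subgroup containing the minimal vectors contains the lattice -/
theorem le_of_min (K : AddSubgroup (GolayPt → ℤ))
    (h : ∀ x ∈ leechLattice, sqNorm x = 32 → x ∈ K) : leechLattice ≤ K := by
  apply le_of_short
  intro x hx hn
  rcases short_types ⟨x, hx⟩ hn with h0 | h0 | h0 | h0
  · have : x = 0 := congrArg Subtype.val h0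
    rw [this]; exact K.zero_mem
  · exact h x hx h0
  · have h1 := type3_main.2 ⟨x, hx⟩ h0
    obtain ⟨y, hy1, hy2⟩ := Set.nonempty_of_ncard_ne_zero (by rw [h1]; norm_num)
    have e : x = (y : GolayPt → ℤ) + (((⟨x, hx⟩ : ↥leechLattice) - y : ↥leechLattice) : GolayPt → ℤ) := by
      show x = (y : GolayPt → ℤ) + (x - (y : GolayPt → ℤ))
      abel
    rw [e]
    exact K.add_mem (h _ y.2 hy1) (h _ (Subtype.property _) hy2)
  · have h1 := type4_main.2 ⟨x, hx⟩ h0
    obtain ⟨y, hy1, hy2⟩ := Set.nonempty_of_ncard_ne_zero (by rw [h1]; norm_num)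
    have e : x = (y : GolayPt → ℤ) + (((⟨x, hx⟩ : ↥leechLattice) - y : ↥leechLattice) : GolayPt → ℤ) := by
      show x = (y : GolayPt → ℤ) + (x - (y : GolayPt → ℤ))
      abel
    rw [e]
    exact K.add_mem (h _ y.2 hy1) (h _ (Subtype.property _) hy2)

theorem top_of_min (K : AddSubgroup ↥leechLattice)
    (h : ∀ x : ↥leechLattice, sqNorm (x : GolayPt → ℤ) = 32 → x ∈ K) (x : ↥leechLattice) : x ∈ K := by
  have h1 := le_of_min (K.map leechLattice.subtype) (fun y hy hn => ⟨⟨y, hy⟩, h ⟨y, hy⟩ hn, rfl⟩)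
  obtain ⟨y, hy, hyx⟩ := h1 x.2
  have : y = x := Subtype.ext hyx
  rwa [this] at hy

/-! ### explicit vectors -/

/-- `s e_i + t e_j` -/
def G4 (i j : GolayPt) (hij : i ≠ j) (s t : ℤ) (hs : s = 4 ∨ s = -4) (ht : t = 4 ∨ t = -4) :
    ↥leechLattice := ⟨Pi.single i s + Pi.single j t, four_four_mem i j hij s t hs ht⟩

def qV : ↥leechLattice := G4 none (some 0) (by decide) 4 4 (Or.inl rfl) (Or.inl rfl)
def qW : ↥leechLattice := G4 none (some 1) (by decide) (-4) 4 (Or.inr rfl) (Or.inl rfl)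
def qU1 : ↥leechLattice := ⟨vTwo (unmask 5279), vTwo_mem (unmask_mem_GC (by decide +kernel))⟩
def qU2 : ↥leechLattice := ⟨vTwo (unmask 8401364), vTwo_mem (unmask_mem_GC (by decide +kernel))⟩

theorem qV_norm : sqNorm (qV : GolayPt → ℤ) = 32 := by decide +kernel
theorem qW_norm : sqNorm (qW : GolayPt → ℤ) = 32 := by decide +kernel
theorem qU1_norm : sqNorm (qU1 : GolayPt → ℤ) = 32 := by decide +kernel
theorem qU2_norm : sqNorm (qU2 : GolayPt → ℤ) = 32 := by decide +kernel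
theorem qV_qW : dotInt (qV : GolayPt → ℤ) (qW : GolayPt → ℤ) = -16 := by decide +kernel
theorem qU1_qV : dotInt (qU1 : GolayPt → ℤ) (qV : GolayPt → ℤ) = 8 := by decide +kernel
theorem qU1_qW : dotInt (qU1 : GolayPt → ℤ) (qW : GolayPt → ℤ) = 8 := by decide +kernel
theorem qU2_qV : dotInt (qU2 : GolayPt → ℤ) (qV : GolayPt → ℤ) = 8 := by decide +kernel
theorem qU2_qW : dotInt (qU2 : GolayPt → ℤ) (qW : GolayPt → ℤ) = -8 := by decide +kernel

theorem norm_add (x y : ↥leechLattice) : sqNorm ((x + y : ↥leechLattice) : GolayPt → ℤ)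
    = sqNorm (x : GolayPt → ℤ) + 2 * dotInt (x : GolayPt → ℤ) (y : GolayPt → ℤ)
      + sqNorm (y : GolayPt → ℤ) := sqNorm_add _ _

theorem norm_sub (x y : ↥leechLattice) : sqNorm ((x - y : ↥leechLattice) : GolayPt → ℤ)
    = sqNorm (x : GolayPt → ℤ) - 2 * dotInt (x : GolayPt → ℤ) (y : GolayPt → ℤ)
      + sqNorm (y : GolayPt → ℤ) := sqNorm_sub _ _

theorem dot_add_right (x y z : ↥leechLattice) :
    dotInt (x : GolayPt → ℤ) ((y + z : ↥leechLattice) : GolayPt → ℤ)
      = dotInt (x : GolayPt → ℤ) (y : GolayPt → ℤ) + dotInt (x : GolayPt → ℤ) (z : GolayPt → ℤ) :=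
  dotInt_add_right' _ _ _

/-- the invariant quadratic form on the lattice modulo 2 -/
theorem quad_unique (Q : ↥leechLattice → ZMod 2)
    (hcoset : ∀ v w : ↥leechLattice, Q (v + (w + w)) = Q v)
    (hquad : ∀ u v w : ↥leechLattice, Q (u + v + w) + Q u + Q v + Q w = Q (u + v) + Q (u + w) + Q (v + w))
    (hinv : ∀ (g : ↥Co0) (v : ↥leechLattice), Q (g • v) = Q v) (hne : ∃ v : ↥leechLattice, Q v ≠ 0)
    (v : ↥leechLattice) : Q v = ((sqNorm (v : GolayPt → ℤ) / 16 : ℤ) : ZMod 2) := by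
  have Q0 : Q 0 = 0 := by
    have := hquad 0 0 0
    simp only [add_zero] at this
    linear_combination this
  have h2 : ∀ x : ↥leechLattice, sqNorm (x : GolayPt → ℤ) = 32 → Q x = Q qV := by
    intro x hx
    obtain ⟨g, rfl⟩ := co0_trans_min qV x qV_norm hx
    exact hinv g qV
  have h3 : ∀ x y : ↥leechLattice, sqNorm (x : GolayPt → ℤ) = 48 → sqNorm (y : GolayPt → ℤ) = 48 →
      Q x = Q y := by
    intro x y hx hy
    obtain ⟨g, rfl⟩ := co0_trans_48 y x hy hx
    exact hinv g y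
  have h4 : ∀ x y : ↥leechLattice, sqNorm (x : GolayPt → ℤ) = 64 → sqNorm (y : GolayPt → ℤ) = 64 →
      Q x = Q y := by
    intro x y hx hy
    obtain ⟨g, rfl⟩ := co0_trans_64 y x hy hx
    exact hinv g y
  have hsub : ∀ x y : ↥leechLattice, Q (x + y) = Q (x - y) := by
    intro x y
    rw [← hcoset (x - y) y]
    congr 1
    abel
  -- first configuration
  have n1 : sqNorm ((qU1 - qV : ↥leechLattice) : GolayPt → ℤ) = 48 := by
    rw [norm_sub, qU1_norm, qV_norm, qU1_qV]; norm_num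
  have n2 : sqNorm ((qU1 - qW : ↥leechLattice) : GolayPt → ℤ) = 48 := by
    rw [norm_sub, qU1_norm, qW_norm, qU1_qW]; norm_num
  have n3 : sqNorm ((qV + qW : ↥leechLattice) : GolayPt → ℤ) = 32 := by
    rw [norm_add, qV_norm, qW_norm, qV_qW]; norm_num
  have n4 : sqNorm ((qU1 - (qV + qW) : ↥leechLattice) : GolayPt → ℤ) = 32 := by
    rw [norm_sub, qU1_norm, n3, dot_add_right, qU1_qV, qU1_qW]; norm_num
  have a2 : Q qV = 0 := by
    have h := hquad qU1 qV qW
    rw [add_assoc qU1 qV qW, hsub qU1 (qV + qW), h2 _ n4, h2 _ qU1_norm, h2 _ qW_norm, hsub qU1 qV,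
      hsub qU1 qW, h3 _ _ n2 n1, h2 _ n3] at h
    generalize Q qV = a at h
    generalize Q (qU1 - qV) = b at h
    revert a b
    decide
  -- second configuration
  have m1 : sqNorm ((qU2 - qV : ↥leechLattice) : GolayPt → ℤ) = 48 := by
    rw [norm_sub, qU2_norm, qV_norm, qU2_qV]; norm_num
  have m2 : sqNorm ((qU2 + qW : ↥leechLattice) : GolayPt → ℤ) = 48 := by
    rw [norm_add, qU2_norm, qW_norm, qU2_qW]; norm_num
  have m4 : sqNorm ((qU2 + (qV + qW) : ↥leechLattice) : GolayPt → ℤ) = 64 := by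
    rw [norm_add, qU2_norm, n3, dot_add_right, qU2_qV, qU2_qW]; norm_num
  have a4 : Q (qU2 + (qV + qW)) = 0 := by
    have h := hquad qU2 qV qW
    rw [add_assoc qU2 qV qW, h2 _ qU2_norm, h2 _ qW_norm, hsub qU2 qV, h3 _ _ m2 m1, h2 _ n3, a2] at h
    generalize Q (qU2 + (qV + qW)) = a at h ⊢
    generalize Q (qU2 - qV) = b at h
    revert a b
    decide
  have key : ∀ x : ↥leechLattice, ∃ y : ↥leechLattice, Q x = Q y ∧ sqNorm (y : GolayPt → ℤ) ≤ 64 ∧
      ∃ k : ℤ, sqNorm (x : GolayPt → ℤ) = sqNorm (y : GolayPt → ℤ) + 32 * k := by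
    intro x
    obtain ⟨y, z, hy, rfl⟩ := exists_short x
    refine ⟨y, hcoset y z, hy, ?_⟩
    obtain ⟨a, ha⟩ := dot_dvd y z
    obtain ⟨b, hb⟩ := norm_dvd z
    refine ⟨a + 2 * b, ?_⟩
    rw [norm_add, dot_add_right, norm_add, ← sqNorm_eq_dotInt, ha, hb]
    ring
  have a3 : Q (qU1 - qV) = 1 := by
    obtain ⟨x, hx⟩ := hne
    obtain ⟨y, hxy, hy, -⟩ := key x
    rw [hxy] at hx
    rcases short_types y hy with h0 | h0 | h0 | h0
    · rw [h0, Q0] at hx; exact absurd rfl hx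
    · rw [h2 _ h0, a2] at hx; exact absurd rfl hx
    · rw [h3 _ _ h0 n1] at hx
      generalize Q (qU1 - qV) = a at hx ⊢
      revert a
      decide
    · rw [h4 _ _ h0 m4, a4] at hx; exact absurd rfl hx
  obtain ⟨y, hxy, hy, k, hk⟩ := key v
  rw [hxy, hk]
  have two0 : ((2 : ℤ) : ZMod 2) = 0 := by decide
  rcases short_types y hy with h0 | h0 | h0 | h0
  · rw [h0, Q0]
    have e : (sqNorm (((0 : ↥leechLattice)) : GolayPt → ℤ) + 32 * k) / 16 = 2 * k := by
      have : sqNorm (((0 : ↥leechLattice)) : GolayPt → ℤ) = 0 := sqNorm_zero'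
      rw [this]; omega
    rw [e]; push_cast; rw [show ((2 : ZMod 2)) = 0 by decide]; ring
  · rw [h2 _ h0, a2, h0]
    have e : ((32 : ℤ) + 32 * k) / 16 = 2 * (k + 1) := by omega
    rw [e]; push_cast; rw [show ((2 : ZMod 2)) = 0 by decide]; ring
  · rw [h3 _ _ h0 n1, a3, h0]
    have e : ((48 : ℤ) + 32 * k) / 16 = 2 * (k + 1) + 1 := by omega
    rw [e]; push_cast; rw [show ((2 : ZMod 2)) = 0 by decide]; ring
  · rw [h4 _ _ h0 m4, a4, h0]
    have e : ((64 : ℤ) + 32 * k) / 16 = 2 * (k + 2) := by omega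
    rw [e]; push_cast; rw [show ((2 : ZMod 2)) = 0 by decide]; ring

end Cfsg.Agent.Lib.Helper54
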