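/-
Helper library (helper54): `Co0` modulo its centre acts faithfully and irreducibly on the Leech lattice modulo 2.
-/
import Cfsg.Agent.Lib.Helper54.LeechQuad

set_option autoImplicit false

namespace Cfsg.Agent.Lib.Helper54

open Cfsg Cfsg.Agent.Lib.Helper7 Cfsg.Agent.Lib.Helper27

/-- two minimal vectors congruent modulo twice the lattice are equal or opposite -/
theorem cong_min (x y z : ↥leechLattice) (hx : sqNorm (x : GolayPt → ℤ) = 32)
    (hy : sqNorm (y : GolayPt → ℤ) = 32) (h : y - x = z + z) : y = x ∨ y = -x := by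
  by_cases hz : z = 0
  · left
    rw [hz, add_zero] at h
    exact sub_eq_zero.1 h
  by_cases hz' : z + x = 0
  · right
    have : y = (z + x) + (z + x) - x := by
      have : y = x + (z + z) := by rw [← h]; abel
      rw [this]; abel
    rw [this, hz']; abel
  exfalso
  have h1 := min_norm z hz
  have h2 := min_norm (z + x) hz'
  have e1 : sqNorm ((y - x : ↥leechLattice) : GolayPt → ℤ) = 4 * sqNorm (z : GolayPt → ℤ) := by
    rw [h, norm_add, ← sqNorm_eq_dotInt]; ring
  have e2 : sqNorm ((y + x : ↥leechLattice) : GolayPt → ℤ)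
      = 4 * sqNorm ((z + x : ↥leechLattice) : GolayPt → ℤ) := by
    have : y + x = (z + x) + (z + x) := by
      have : y = x + (z + z) := by rw [← h]; abel
      rw [this]; abel
    rw [this, norm_add (z + x) (z + x), ← sqNorm_eq_dotInt]; ring
  rw [norm_sub, hx, hy] at e1
  rw [norm_add y x, hx, hy] at e2
  omega

theorem exists_nonorth (a b : ↥leechLattice) (ha : sqNorm (a : GolayPt → ℤ) = 32)
    (hb : sqNorm (b : GolayPt → ℤ) = 32) : ∃ u : ↥leechLattice, sqNorm (u : GolayPt → ℤ) = 32 ∧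
      dotInt (a : GolayPt → ℤ) (u : GolayPt → ℤ) ≠ 0 ∧ dotInt (b : GolayPt → ℤ) (u : GolayPt → ℤ) ≠ 0 := by
  have h1 := co0_count_pair a ha 0 (by decide)
  have h2 := co0_count_pair b hb 0 (by decide)
  have e : mOf 0 = 93150 := by decide
  rw [e] at h1 h2
  have h3 := Set.ncard_union_le {w : ↥leechLattice | sqNorm (w : GolayPt → ℤ) = 32 ∧
      dotInt (a : GolayPt → ℤ) (w : GolayPt → ℤ) = 0} {w : ↥leechLattice | sqNorm (w : GolayPt → ℤ) = 32 ∧
      dotInt (b : GolayPt → ℤ) (w : GolayPt → ℤ) = 0}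
  rw [h1, h2] at h3
  have hfin : ({w : ↥leechLattice | sqNorm (w : GolayPt → ℤ) = 32 ∧
      dotInt (a : GolayPt → ℤ) (w : GolayPt → ℤ) = 0} ∪ {w : ↥leechLattice | sqNorm (w : GolayPt → ℤ) = 32 ∧
      dotInt (b : GolayPt → ℤ) (w : GolayPt → ℤ) = 0}).Finite :=
    (Set.finite_of_ncard_ne_zero (by rw [h1]; norm_num)).union
      (Set.finite_of_ncard_ne_zero (by rw [h2]; norm_num))
  obtain ⟨u, hu1, hu2⟩ := Set.exists_mem_notMem_of_ncard_lt_ncard
    (s := {w : ↥leechLattice | sqNorm (w : GolayPt → ℤ) = 32 ∧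
      dotInt (a : GolayPt → ℤ) (w : GolayPt → ℤ) = 0} ∪ {w : ↥leechLattice | sqNorm (w : GolayPt → ℤ) = 32 ∧
      dotInt (b : GolayPt → ℤ) (w : GolayPt → ℤ) = 0})
    (t := {x : ↥leechLattice | sqNorm (x : GolayPt → ℤ) = 32}) (by rw [ncard_min]; omega) hfin
  refine ⟨u, hu1, fun h => hu2 (Or.inl ⟨hu1, h⟩), fun h => hu2 (Or.inr ⟨hu1, h⟩)⟩

theorem negCo0_mem_center : negCo0 ∈ Subgroup.center ↥Co0 := by
  rw [Subgroup.mem_center_iff]
  intro g
  apply Subtype.ext
  apply Equiv.ext
  intro v
  show g • (negCo0 • v) = negCo0 • (g • v)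
  rw [negCo0_smul, negCo0_smul, co0_neg]

theorem faithful_mod_two (g : ↥Co0) (h : ∀ v : ↥leechLattice, ∃ w : ↥leechLattice,
    ((g • v : ↥leechLattice) : GolayPt → ℤ) - (v : GolayPt → ℤ) = 2 • (w : GolayPt → ℤ)) :
    g ∈ Subgroup.center ↥Co0 := by
  have hpm : ∀ x : ↥leechLattice, sqNorm (x : GolayPt → ℤ) = 32 → g • x = x ∨ g • x = -x := by
    intro x hx
    obtain ⟨w, hw⟩ := h x
    apply cong_min x (g • x) w hx (by rw [co0_sqNorm]; exact hx)
    apply Subtype.ext
    show ((g • x : ↥leechLattice) : GolayPt → ℤ) - (x : GolayPt → ℤ) = (w : GolayPt → ℤ) + w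
    rw [hw, two_smul]
  have hne0 : ∀ x : ↥leechLattice, sqNorm (x : GolayPt → ℤ) = 32 → x ≠ -x := by
    intro x hx hxx
    have h0 : x = 0 := by
      have h1 : x + x = 0 := by nth_rw 2 [hxx]; abel
      apply Subtype.ext
      funext i
      have h2 := congrFun (congrArg Subtype.val h1) i
      have h3 : (x : GolayPt → ℤ) i + (x : GolayPt → ℤ) i = 0 := h2
      show (x : GolayPt → ℤ) i = 0
      omega
    rw [h0] at hx
    have : sqNorm (((0 : ↥leechLattice)) : GolayPt → ℤ) = 0 := sqNorm_zero'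
    rw [this] at hx
    norm_num at hx
  have hsame : ∀ a b : ↥leechLattice, sqNorm (a : GolayPt → ℤ) = 32 → sqNorm (b : GolayPt → ℤ) = 32 →
      dotInt (a : GolayPt → ℤ) (b : GolayPt → ℤ) ≠ 0 → (g • a = a ↔ g • b = b) := by
    intro a b ha hb hab
    have hd := co0_dotInt g a b
    constructor
    · intro h1
      rcases hpm b hb with h2 | h2
      · exact h2
      · exfalso
        rw [h1, h2] at hd
        have : dotInt (a : GolayPt → ℤ) ((-b : ↥leechLattice) : GolayPt → ℤ)
            = - dotInt (a : GolayPt → ℤ) (b : GolayPt → ℤ) := dotInt_neg_right' _ _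
        rw [this] at hd
        omega
    · intro h1
      rcases hpm a ha with h2 | h2
      · exact h2
      · exfalso
        rw [h1, h2] at hd
        have : dotInt ((-a : ↥leechLattice) : GolayPt → ℤ) (b : GolayPt → ℤ)
            = - dotInt (a : GolayPt → ℤ) (b : GolayPt → ℤ) := dotInt_neg_left' _ _
        rw [this] at hd
        omega
  have hall : ∀ a b : ↥leechLattice, sqNorm (a : GolayPt → ℤ) = 32 → sqNorm (b : GolayPt → ℤ) = 32 →
      (g • a = a ↔ g • b = b) := by
    intro a b ha hb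
    obtain ⟨u, hu, h1, h2⟩ := exists_nonorth a b ha hb
    exact (hsame a u ha hu h1).trans (hsame b u hb hu h2).symm
  rcases hpm qV qV_norm with h1 | h1
  · have : g = 1 := by
      apply Subtype.ext
      apply Equiv.ext
      intro v
      let K : AddSubgroup ↥leechLattice :=
        { carrier := {x | g • x = x}
          zero_mem' := co0_zero g
          add_mem' := fun {a b} ha hb => by
            show g • (a + b) = a + b
            rw [co0_add, ha, hb]
          neg_mem' := fun {a} ha => by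
            show g • (-a) = -a
            rw [co0_neg, ha] }
      exact top_of_min K (fun x hx => (hall qV x qV_norm hx).1 h1) v
    rw [this]; exact Subgroup.one_mem _
  · have : g = negCo0 := by
      apply Subtype.ext
      apply Equiv.ext
      intro v
      let K : AddSubgroup ↥leechLattice :=
        { carrier := {x | g • x = -x}
          zero_mem' := by
            show g • (0 : ↥leechLattice) = -0
            rw [co0_zero, neg_zero]
          add_mem' := fun {a b} ha hb => by
            show g • (a + b) = -(a + b)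
            rw [co0_add, ha, hb]; abel
          neg_mem' := fun {a} ha => by
            show g • (-a) = - -a
            rw [co0_neg, ha] }
      refine top_of_min K (fun x hx => ?_) v
      rcases hpm x hx with h2 | h2
      · exfalso
        have h3 := (hall qV x qV_norm hx).2 h2
        rw [h1] at h3
        exact hne0 qV qV_norm h3.symm
      · exact h2
    rw [this]; exact negCo0_mem_center

def rA : ↥leechLattice := G4 none (some 0) (by decide) 4 4 (Or.inl rfl) (Or.inl rfl)
def rC : ↥leechLattice := G4 none (some 1) (by decide) 4 4 (Or.inl rfl) (Or.inl rfl)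
def rB : ↥leechLattice := G4 (some 2) (some 3) (by decide) 4 4 (Or.inl rfl) (Or.inl rfl)

theorem irreducible_mod_two (M : AddSubgroup (GolayPt → ℤ)) (h2 : ∀ v ∈ leechLattice, (2 : ℤ) • v ∈ M)
    (hle : M ≤ leechLattice)
    (hinv : ∀ g : ↥Co0, ∀ v : ↥leechLattice, (v : GolayPt → ℤ) ∈ M →
      ((g • v : ↥leechLattice) : GolayPt → ℤ) ∈ M) :
    (∀ x ∈ M, ∃ w ∈ leechLattice, x = (2 : ℤ) • w) ∨ M = leechLattice := by
  by_cases hall : ∀ x ∈ M, ∃ w ∈ leechLattice, x = (2 : ℤ) • w
  · exact Or.inl hall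
  right
  push_neg at hall
  obtain ⟨x, hxM, hx⟩ := hall
  apply le_antisymm hle
  have hmin : ∀ y : ↥leechLattice, sqNorm (y : GolayPt → ℤ) = 32 → (y : GolayPt → ℤ) ∈ M →
      leechLattice ≤ M := by
    intro y hy hyM
    apply le_of_min
    intro z hz hzn
    obtain ⟨g, hg⟩ := co0_trans_min y ⟨z, hz⟩ hy hzn
    have := hinv g y hyM
    rw [hg] at this
    exact this
  obtain ⟨y, z, hy, hxyz⟩ := exists_short ⟨x, hle hxM⟩
  have hxe : x = (y : GolayPt → ℤ) + ((z : GolayPt → ℤ) + z) := congrArg Subtype.val hxyz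
  have hyM : (y : GolayPt → ℤ) ∈ M := by
    have h3 := h2 z z.2
    have e : (y : GolayPt → ℤ) = x - (2 : ℤ) • (z : GolayPt → ℤ) := by
      rw [hxe, two_smul]; abel
    rw [e]
    exact M.sub_mem hxM h3
  rcases short_types y hy with h0 | h0 | h0 | h0
  · exfalso
    apply hx z z.2
    rw [hxe, h0, two_smul]
    show (0 : GolayPt → ℤ) + _ = _
    rw [zero_add]
  · exact hmin y h0 hyM
  · -- type 3
    have hall3 : ∀ u : ↥leechLattice, sqNorm (u : GolayPt → ℤ) = 48 → (u : GolayPt → ℤ) ∈ M := by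
      intro u hu
      obtain ⟨g, hg⟩ := co0_trans_48 y u h0 hu
      have := hinv g y hyM
      rwa [hg] at this
    -- `qU1 - qV` and `qU1 - qW` have type 3, their difference `qW - qV` has norm 96; use instead `qU2`
    have n1 : sqNorm ((qU2 - qV : ↥leechLattice) : GolayPt → ℤ) = 48 := by
      rw [norm_sub, qU2_norm, qV_norm, qU2_qV]; norm_num
    have n2 : sqNorm ((qU2 + qW : ↥leechLattice) : GolayPt → ℤ) = 48 := by
      rw [norm_add, qU2_norm, qW_norm, qU2_qW]; norm_num
    have n3 : sqNorm ((qV + qW : ↥leechLattice) : GolayPt → ℤ) = 32 := by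
      rw [norm_add, qV_norm, qW_norm, qV_qW]; norm_num
    apply hmin (qV + qW) n3
    have e : ((qV + qW : ↥leechLattice) : GolayPt → ℤ)
        = ((qU2 + qW : ↥leechLattice) : GolayPt → ℤ) - ((qU2 - qV : ↥leechLattice) : GolayPt → ℤ) := by
      show (qV : GolayPt → ℤ) + (qW : GolayPt → ℤ)
        = ((qU2 : GolayPt → ℤ) + (qW : GolayPt → ℤ)) - ((qU2 : GolayPt → ℤ) - (qV : GolayPt → ℤ))
      abel
    rw [e]
    exact M.sub_mem (hall3 _ n2) (hall3 _ n1)
  · -- type 4
    have hall4 : ∀ u : ↥leechLattice, sqNorm (u : GolayPt → ℤ) = 64 → (u : GolayPt → ℤ) ∈ M := by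
      intro u hu
      obtain ⟨g, hg⟩ := co0_trans_64 y u h0 hu
      have := hinv g y hyM
      rwa [hg] at this
    have n1 : sqNorm ((rA + rB : ↥leechLattice) : GolayPt → ℤ) = 64 := by decide +kernel
    have n2 : sqNorm ((rC + rB : ↥leechLattice) : GolayPt → ℤ) = 64 := by decide +kernel
    have n3 : sqNorm ((rA - rC : ↥leechLattice) : GolayPt → ℤ) = 32 := by decide +kernel
    apply hmin (rA - rC) n3
    have e : ((rA - rC : ↥leechLattice) : GolayPt → ℤ)
        = ((rA + rB : ↥leechLattice) : GolayPt → ℤ) - ((rC + rB : ↥leechLattice) : GolayPt → ℤ) := by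
      show (rA : GolayPt → ℤ) - (rC : GolayPt → ℤ)
        = ((rA : GolayPt → ℤ) + (rB : GolayPt → ℤ)) - ((rC : GolayPt → ℤ) + (rB : GolayPt → ℤ))
      abel
    rw [e]
    exact M.sub_mem (hall4 _ n1) (hall4 _ n2)

end Cfsg.Agent.Lib.Helper54
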