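/-
Helper library (helper54): the pointwise stabiliser of three points in M24 is isomorphic to PSL(3, 4).
-/
import Cfsg.Agent.Lib.Helper40.U6.K4
import Cfsg.Agent.Lib.Helper27.Trans
import Cfsg.Agent.Lib.Helper5.SLGen
import Cfsg.Agent.Lib.Helper54.RelIso2
import Cfsg.Agent.Lib.Helper54.PSUCongr
import Cfsg.Agent.S0243

set_option autoImplicit false

namespace Cfsg.Agent.Lib.Helper54.M21

open Matrix Cfsg Cfsg.Agent.Lib.Helper27 Cfsg.Agent.Lib.Helper54
open Cfsg.Agent.Lib.Helper40.U6 (K4 ofN)

/-- the vectors -/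
abbrev V3 : Type := Fin 3 → K4

/-- decoding of vectors -/
def dec3 (m : ℕ) : V3 := fun i => ofN ((m >>> (2 * i.val)) &&& 3)

/-- the 21 points and their labels in the projective plane -/
def tab : List (ℕ × ℕ) := [(2, 16), (3, 21), (4, 52), (5, 53), (6, 29), (7, 45), (8, 25), (9, 49), (10, 17), (11, 57), (12, 41), (13, 4), (14, 37), (15, 1), (16, 36), (17, 5), (18, 9), (19, 13), (20, 33), (21, 61), (22, 20)]

/-- the permutations corresponding to the elementary transvections (and the identity) -/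
def codes : List ℕ := [984818244535754528103549039458486304, 959789712551549311357050337837647904, 983560496244493579808249287294715936, 971107250297140663006814421721450528, 959775806916153066781728529055426592, 983548058628271758227072553185584160, 971084517930466411659722882702561312, 984404951986650291017642929327245344, 984158983359129550953007900942075936, 984314827592033236074561707266279456, 958359841193275559058527489894996000, 976607671605327482668242317735039008, 960796265644511697179202340874633248, 984235865005994746954145143334668320, 984202951082164080105044112956360736, 984724508489452699215480746259449888, 973054518210042674313238929715267616, 960884477435128931241433760505432096, 976420838754479978627774237199763488]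

/-- the special linear group -/
abbrev U : Type := Matrix.SpecialLinearGroup (Fin 3) K4

/-- the stabiliser -/
abbrev G : Type := ↥(fixer L3)

/-- compatibility of a permutation and a matrix -/
def Rel (g : Equiv.Perm GolayPt) (u : U) : Prop :=
  ∀ e ∈ tab, ∃ e' ∈ tab, g (pt e.1) = pt e'.1 ∧ ∃ c : K4, u.1 *ᵥ dec3 e.2 = c • dec3 e'.2

theorem Rel.one : Rel 1 1 := fun e he => ⟨e, he, rfl, 1, by simp⟩

theorem Rel.mul {g g' : Equiv.Perm GolayPt} {u u' : U} (h : Rel g u) (h' : Rel g' u') :
    Rel (g * g') (u * u') := by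
  intro e he
  obtain ⟨e1, he1, a1, c1, b1⟩ := h' e he
  obtain ⟨e2, he2, a2, c2, b2⟩ := h e1 he1
  refine ⟨e2, he2, ?_, c1 * c2, ?_⟩
  · rw [Equiv.Perm.mul_apply, a1, a2]
  · rw [Matrix.SpecialLinearGroup.coe_mul, ← Matrix.mulVec_mulVec, b1, Matrix.mulVec_smul, b2, smul_smul]

/-- the compatible pairs -/
def relMonoid : Submonoid (G × U) where
  carrier := {p | Rel p.1.1 p.2}
  one_mem' := Rel.one
  mul_mem' := fun ha hb => Rel.mul ha hb

/-- the compatible pairs -/
def R : Subgroup (G × U) := subgroupOfSubmonoid relMonoid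

theorem mem_R {x : G} {u : U} : (x, u) ∈ R ↔ Rel x.1 u := Iff.rfl

set_option maxRecDepth 100000 in
theorem codes_ok : ∀ c ∈ codes, checkFix L3 c = true := by decide +kernel

theorem tab_lt : ∀ e ∈ tab, e.1 < 24 := by decide

set_option maxRecDepth 100000 in
theorem key : ∀ i j : Fin 3, i ≠ j → ∀ c : K4, ∃ code ∈ codes, ∀ e ∈ tab, ∃ e' ∈ tab,
    e'.1 = ent code e.1 ∧ ∃ c' : K4, Matrix.transvection i j c *ᵥ dec3 e.2 = c' • dec3 e'.2 := by
  decide +kernel

theorem partner (i j : Fin 3) (h : i ≠ j) (c : K4) :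
    ∃ x : G, (x, Matrix.SpecialLinearGroup.transvection h c) ∈ R := by
  obtain ⟨code, hc, hk⟩ := key i j h c
  have h1 := codes_ok code hc
  refine ⟨⟨permOf code, permOf_mem_fixer h1⟩, ?_⟩
  rw [mem_R]
  intro e he
  obtain ⟨e', he', a1, c', b1⟩ := hk e he
  refine ⟨e', he', ?_, c', ?_⟩
  · show permOf code (pt e.1) = pt e'.1
    rw [permOf_apply (valid_of_checkFix h1), idx_pt (tab_lt e he), a1]
  · rw [Matrix.SpecialLinearGroup.transvection_coe]
    exact b1

theorem not_key : ∀ e' ∈ tab, e'.1 = 2 →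
    ¬ ∃ c : K4, Matrix.transvection (0 : Fin 3) 2 1 *ᵥ dec3 16 = c • dec3 e'.2 := by decide +kernel

theorem not_rel : ((1 : G), Matrix.SpecialLinearGroup.transvection (show (0 : Fin 3) ≠ 2 by decide) (1 : K4)) ∉ R := by
  intro h
  rw [mem_R] at h
  obtain ⟨e', he', a1, c, b1⟩ := h (2, 16) (by decide)
  have a2 : pt 2 = pt e'.1 := a1
  have a3 : e'.1 = 2 := by
    have := congrArg idx a2
    rw [idx_pt (by norm_num), idx_pt (tab_lt e' he')] at this
    exact this.symm
  rw [Matrix.SpecialLinearGroup.transvection_coe] at b1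
  exact not_key e' he' a3 ⟨c, b1⟩

theorem card_PSL : Nat.card (Matrix.ProjectiveSpecialLinearGroup (Fin 3) K4) = 20160 := by
  have h := Cfsg.Agent.S0243.result (F := K4) (q := 4) K4.card_eq 3 (by norm_num)
  have e : ∏ i : Fin 3, (4 ^ 3 - 4 ^ (i : ℕ)) = 181440 := by decide +kernel
  rw [e] at h
  have g : Nat.gcd 3 (4 - 1) = 3 := by decide
  rw [g] at h
  generalize Nat.card (Matrix.ProjectiveSpecialLinearGroup (Fin 3) K4) = c at h ⊢
  omega

theorem main0 : Nonempty (G ≃* Matrix.ProjectiveSpecialLinearGroup (Fin 3) K4) := by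
  apply iso_of_relation (U := U)
    (normal_le_center_or_top (Cfsg.Agent.Lib.Helper5.PSL_isSimpleGroup (by simp))
      (Cfsg.Agent.Lib.Helper5.SL_commutator_eq_top (by simp)))
    (by rw [card_fixer_L3]; exact card_PSL.symm) R
    {A | ∃ (i j : Fin 3) (h : i ≠ j) (c : K4), A = Matrix.SpecialLinearGroup.transvection h c}
  · rw [eq_top_iff]
    intro A _
    exact Cfsg.Agent.Lib.Helper5.SL_transvection_induction
      (fun A => A ∈ Subgroup.closure {A : U | ∃ (i j : Fin 3) (h : i ≠ j) (c : K4),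
        A = Matrix.SpecialLinearGroup.transvection h c})
      (fun i j h c => Subgroup.subset_closure ⟨i, j, h, c, rfl⟩)
      (fun A B hA hB => Subgroup.mul_mem _ hA hB) A
  · rintro _ ⟨i, j, h, c, rfl⟩
    exact partner i j h c
  · exact ⟨_, not_rel⟩

/-- the isomorphism of special linear groups induced by an isomorphism of rings -/
def slCongr {F K : Type*} [CommRing F] [CommRing K] (f : F ≃+* K) (n : ℕ) :
    Matrix.SpecialLinearGroup (Fin n) F ≃* Matrix.SpecialLinearGroup (Fin n) K where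
  toFun A := Matrix.SpecialLinearGroup.map (f : F →+* K) A
  invFun A := Matrix.SpecialLinearGroup.map (f.symm : K →+* F) A
  left_inv A := by
    apply Subtype.ext
    ext i j
    exact f.symm_apply_apply _
  right_inv A := by
    apply Subtype.ext
    ext i j
    exact f.apply_symm_apply _
  map_mul' A B := map_mul _ A B

theorem perm_inv_apply {α : Type*} (g : Equiv.Perm α) (x : α) : g⁻¹ (g x) = x := g.symm_apply_apply x

/-- the stabiliser of three points is conjugate to the standard one -/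
def stabEquiv (p q r : GolayPt) (g0 : Equiv.Perm GolayPt) (hg0 : g0 ∈ M24) (h1 : g0 p = pt 23)
    (h2 : g0 q = pt 0) (h3 : g0 r = pt 1) :
    ↥(MulAction.stabilizer M24 p ⊓ MulAction.stabilizer M24 q ⊓ MulAction.stabilizer M24 r) ≃* G where
  toFun h := ⟨g0 * h.1.1 * g0⁻¹, by
    obtain ⟨⟨a1, a2⟩, a3⟩ := h.2
    have b1 : h.1.1 p = p := a1
    have b2 : h.1.1 q = q := a2
    have b3 : h.1.1 r = r := a3
    refine ⟨M24.mul_mem (M24.mul_mem hg0 h.1.2) (M24.inv_mem hg0), ?_⟩
    intro m hm
    simp only [L3, List.mem_cons, List.not_mem_nil, or_false] at hm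
    rcases hm with rfl | rfl | rfl
    · rw [smul_unmask_two_pow (by norm_num), Equiv.Perm.mul_apply, Equiv.Perm.mul_apply, ← h3,
        perm_inv_apply, b3]
    · rw [smul_unmask_two_pow (by norm_num), Equiv.Perm.mul_apply, Equiv.Perm.mul_apply, ← h2,
        perm_inv_apply, b2]
    · rw [smul_unmask_two_pow (by norm_num), Equiv.Perm.mul_apply, Equiv.Perm.mul_apply, ← h1,
        perm_inv_apply, b1]⟩
  invFun k := ⟨⟨g0⁻¹ * k.1 * g0, M24.mul_mem (M24.mul_mem (M24.inv_mem hg0) k.2.1) hg0⟩, by
    have c1 : k.1 (pt 23) = pt 23 := fixer_fix k.2 (by norm_num) (by simp [L3])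
    have c2 : k.1 (pt 0) = pt 0 := fixer_fix k.2 (by norm_num) (by simp [L3])
    have c3 : k.1 (pt 1) = pt 1 := fixer_fix k.2 (by norm_num) (by simp [L3])
    refine ⟨⟨?_, ?_⟩, ?_⟩
    · show (g0⁻¹ * k.1 * g0) p = p
      rw [Equiv.Perm.mul_apply, Equiv.Perm.mul_apply, h1, c1, ← h1, perm_inv_apply]
    · show (g0⁻¹ * k.1 * g0) q = q
      rw [Equiv.Perm.mul_apply, Equiv.Perm.mul_apply, h2, c2, ← h2, perm_inv_apply]
    · show (g0⁻¹ * k.1 * g0) r = r
      rw [Equiv.Perm.mul_apply, Equiv.Perm.mul_apply, h3, c3, ← h3, perm_inv_apply]⟩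
  left_inv h := by
    apply Subtype.ext
    apply Subtype.ext
    show g0⁻¹ * (g0 * h.1.1 * g0⁻¹) * g0 = h.1.1
    group
  right_inv k := by
    apply Subtype.ext
    show g0 * (g0⁻¹ * k.1 * g0) * g0⁻¹ = k.1
    group
  map_mul' h k := by
    apply Subtype.ext
    show g0 * (h.1.1 * k.1.1) * g0⁻¹ = (g0 * h.1.1 * g0⁻¹) * (g0 * k.1.1 * g0⁻¹)
    group

theorem main (p q r : GolayPt) (hpq : p ≠ q) (hpr : p ≠ r) (hqr : q ≠ r) (F : Type) [Field F] [Fintype F]
    (hF : Fintype.card F = 4) :
    Nonempty (↥(MulAction.stabilizer M24 p ⊓ MulAction.stabilizer M24 q ⊓ MulAction.stabilizer M24 r) ≃*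
      Matrix.ProjectiveSpecialLinearGroup (Fin 3) F) := by
  obtain ⟨g0, hg0, h1, h2, h3⟩ := std3 hpq hpr hqr
  obtain ⟨e1⟩ := main0
  have f : K4 ≃+* F := FiniteField.ringEquivOfCardEq (by rw [hF]; rfl)
  exact ⟨((stabEquiv p q r g0 hg0 h1 h2 h3).trans e1).trans (centerQuotCongr (slCongr f 3))⟩

end Cfsg.Agent.Lib.Helper54.M21
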