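/-
Helper library (helper54): McL on 2025 points and the orbits of a point stabilizer.
-/
import Cfsg.Agent.Lib.Helper54.McL2025
import Cfsg.Agent.Lib.Helper54.Co0Inv

set_option autoImplicit false

namespace Cfsg.Agent.Lib.Helper54

open Cfsg

def xx1 : ↥leechLattice := LV Xx1 Xx1_leech

theorem count2025 : CountL [wB, v0] 32 [0, 16] 2025 := countL_of_codes rfl t3_count2

theorem trans2025 : TransL [wB, v0] 32 [0, 16] :=
  transL_of_codes rfl t3_count2 (by norm_num) Xx1_cls (V_mem Xx1_leech) mcl2025_lower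

theorem xx1_cls : ClsL [wB, v0] 32 [0, 16] xx1 :=
  (clsL_iff_clsQ (Xs := [XwB, Xv0]) rfl 32 [0, 16] xx1).2 (clsOK_spec Xx1_cls).1

theorem count330 : CountL [xx1, wB, v0] 32 [0, 0, 16] 330 := countL_of_codes rfl mmP0_count
theorem count1232 : CountL [xx1, wB, v0] 32 [8, 0, 16] 1232 := countL_of_codes rfl mmP8_count
theorem count462 : CountL [xx1, wB, v0] 32 [16, 0, 16] 462 := countL_of_codes rfl mmP16_count

theorem trans330 : TransL [xx1, wB, v0] 32 [0, 0, 16] :=
  transL_of_codes rfl mmP0_count (by norm_num) XmmP0_clsmmP (V_mem XmmP0_leech) mmPo0_lower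
theorem trans1232 : TransL [xx1, wB, v0] 32 [8, 0, 16] :=
  transL_of_codes rfl mmP8_count (by norm_num) XmmP8_clsmmP (V_mem XmmP8_leech) mmPo8_lower
theorem trans462 : TransL [xx1, wB, v0] 32 [16, 0, 16] :=
  transL_of_codes rfl mmP16_count (by norm_num) XmmP16_clsmmP (V_mem XmmP16_leech) mmPo16_lower

theorem exists_of_countL' {bs : List ↥leechLattice} {n : ℤ} {c : List ℤ} {N : ℕ}
    (h : CountL bs n c N) (hN : N ≠ 0) : ∃ y, ClsL bs n c y := by
  have : {x | ClsL bs n c x}.Nonempty := Set.nonempty_of_ncard_ne_zero (by rw [h]; exact hN)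
  exact this

end Cfsg.Agent.Lib.Helper54
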