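/-
Helper library (helper54): an orbit of the stabilizer of (4,-4,0^22) in the monomial group on the minimal vectors orthogonal to it.  (generated data)
-/
import Cfsg.Agent.Lib.Helper54.NGens

set_option autoImplicit false

namespace Cfsg.Agent.Lib.Helper54

open Cfsg Cfsg.Agent.Lib.Helper27

/-- code of the base point -/
def XnP : ℕ := 12223210625911365051897705479834078453873723788143177477568832021214484297810767807216943116

set_option maxRecDepth 100000 in
/-- representatives of the orbits of the sign changes -/
def nGroupsP : List (RepGroup (List (ℕ × ℕ))) := [(12223210625911365051897705479834078453873723788143177477568832021214484297810767807216943116, [], [[(2, 0)], []])]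

set_option maxRecDepth 100000 in
theorem nGroupsP_count : totalCount nGroupsP = 2 := by decide +kernel

set_option maxRecDepth 100000 in
theorem nGroupsP_ok :
    groupsOK (okMask 8388609) (fun w => runWord (okMask 8388609) nvGens w XnP) nGroupsP 0 = true := by
  decide +kernel

set_option maxRecDepth 100000 in
theorem XnP_leech : leechOK XnP = true := by decide +kernel

set_option maxRecDepth 100000 in
theorem XnP_code : codeOK XnP = true := by decide +kernel

set_option maxRecDepth 100000 in
theorem XnP_norm : dotC XnP XnP = 32 := by decide +kernel

set_option maxRecDepth 100000 in
theorem XnP_dot : dotC Xv0 XnP = 0 := by decide +kernel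

end Cfsg.Agent.Lib.Helper54
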