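/-
Helper library (helper54): the checks on the data of `U3Data`.
-/
import Cfsg.Agent.Lib.Helper54.U3Data
import Cfsg.Agent.Lib.Helper54.HSMain2

set_option autoImplicit false

namespace Cfsg.Agent.Lib.Helper54.U3

open Matrix Cfsg.Agent.Lib.Helper5 Cfsg.Agent.Lib.Helper13 Cfsg.Agent.Lib.Helper27 Cfsg.Agent.Lib.Helper54
open Cfsg.Agent.Lib.Helper54.U6 (forceN forceN_eq orL orL_eq anyL anyL_iff)

/-- the base vector -/
def yy0 : ↥Cfsg.leechLattice := LV XhsYm8 XhsYm8_leech

theorem yy0_cls : ClsL [tt0, u3] 32 [-8, -16] yy0 :=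
  (clsL_iff_clsQ (Xs := [Xt0, Xu3]) rfl 32 [-8, -16] yy0).2 (clsOK_spec XhsYm8_clshsY).1

set_option maxRecDepth 100000 in
theorem base_y_t0_u3 : baseOK 14508055 [XhsYm8, Xt0, Xu3] = true := by decide +kernel

/-- the check of equivariance for one generator -/
def chkGen (g : (ℕ × List ℕ) × ℕ) : Bool :=
  allList (fun e : ℕ × List (ℕ × ℕ) => forceN (appFast g.1.1 g.1.2 e.1) fun Y =>
    anyL (fun e' : ℕ × List (ℕ × ℕ) => band (Nat.beq Y e'.1)
      (allList (fun b : ℕ × ℕ => memc (tfc g.2 b.1) e'.2) e.2)) tab) tab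

set_option maxRecDepth 100000 in
theorem gens_ok : gensOK (gens.map Prod.fst) = true := by decide +kernel

set_option maxRecDepth 100000 in
theorem gens_fix : fixOK (gens.map Prod.fst) [XhsYm8, Xt0, Xu3] = true := by decide +kernel

set_option maxRecDepth 100000 in
theorem gens_iso : ∀ g ∈ gens, hf (dec g.2) (dec g.2) = 0 := by decide +kernel

set_option maxRecDepth 100000 in
theorem gens_snd : gens.map Prod.snd = ga := by decide +kernel

set_option maxRecDepth 100000 in
theorem tab_ok : allList (fun e : ℕ × List (ℕ × ℕ) => band (codeOK e.1) (decide (dotC e.1 e.1 ≤ 64))) tab = true := by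
  decide +kernel

set_option maxRecDepth 100000 in
theorem chk_all : allList chkGen gens = true := by decide +kernel

end Cfsg.Agent.Lib.Helper54.U3
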