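/-
Helper library (helper54): coded vectors of the hermitian space of dimension 3 over the field with 25 elements,
unitary transvections, subspaces given by coded bases.
-/
import Cfsg.Agent.Lib.Helper54.K25
import Cfsg.Agent.Lib.Helper54.U6Code
import Cfsg.Agent.Lib.Helper5.SUSimple

set_option autoImplicit false

namespace Cfsg.Agent.Lib.Helper54.U3

open Matrix Cfsg.Agent.Lib.Helper5 Cfsg.Agent.Lib.Helper13 Cfsg.Agent.Lib.Helper27 Cfsg.Agent.Lib.Helper54
  Cfsg.Agent.Lib.Helper54.K25
open Cfsg.Agent.Lib.Helper54.U6 (forceN forceN_eq orL orL_eq anyL anyL_iff)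

/-- the vectors -/
abbrev VV : Type := Fin 3 → K25

/-- the hermitian form -/
abbrev hf (x y : VV) : K25 := Cfsg.hermForm 3 K25 5 x y

/-- decoding of vectors -/
def dec (m : ℕ) : VV := fun i => ofN ((m / 25 ^ i.val) % 25)

/-- coding of vectors -/
def enc (v : VV) : ℕ := toN (v 0) + 25 * (toN (v 1) + 25 * (toN (v 2)))

theorem enc_lt (v : VV) : enc v < 15625 := by
  have h0 := toN_lt (v 0)
  have h1 := toN_lt (v 1)
  have h2 := toN_lt (v 2)
  unfold enc
  omega

theorem dec_enc (v : VV) : dec (enc v) = v := by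
  have h0 := toN_lt (v 0)
  have h1 := toN_lt (v 1)
  have h2 := toN_lt (v 2)
  funext i
  rw [← ofN_toN (v i)]
  unfold dec enc
  congr 1
  fin_cases i <;> simp <;> omega

/-- the parameter of the transvections -/
def c0 : K25 := ofN 5

theorem hc0 : c0 + c0 ^ 5 = 0 := by decide +kernel

/-- the transvection with a coded centre -/
def tvc (a : ℕ) : Cfsg.SU 3 K25 5 :=
  if h : hf (dec a) (dec a) = 0 then tSU card_eq' (dec a) c0 h hc0 else 1

/-- the map `x ↦ x + c0 h(x, v) v` -/
def tf (a : ℕ) (x : VV) : VV := x + (c0 * hf x (dec a)) • dec a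

theorem tvc_mulVec {a : ℕ} (h : hf (dec a) (dec a) = 0) (x : VV) : (tvc a).1.1 *ᵥ x = tf a x := by
  rw [tvc, dif_pos h, tSU_mulVec, tf]

/-- products of transvections -/
def tl (l : List ℕ) : Cfsg.SU 3 K25 5 := (l.map tvc).prod

theorem tl_mulVec (l : List ℕ) (h : ∀ a ∈ l, hf (dec a) (dec a) = 0) (x : VV) :
    (tl l).1.1 *ᵥ x = l.foldr tf x := by
  induction l with
  | nil =>
    have e : tl [] = 1 := by simp [tl]
    rw [e, SU_one_mulVec]; rfl
  | cons a l ih =>
    have e : tl (a :: l) = tvc a * tl l := by simp [tl]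
    rw [e, SU_mul_mulVec, ih (fun m hm => h m (List.mem_cons_of_mem _ hm)),
      tvc_mulVec (h a List.mem_cons_self), List.foldr_cons]

/-- transvections on codes -/
def tfc (a m : ℕ) : ℕ := forceN m fun m' => enc (tf a (dec m'))

theorem dec_tfc (a m : ℕ) : dec (tfc a m) = tf a (dec m) := by
  rw [tfc, forceN_eq, dec_enc]

theorem dec_foldr (l : List ℕ) (m : ℕ) : dec (l.foldr tfc m) = l.foldr tf (dec m) := by
  induction l with
  | nil => rfl
  | cons n l ih => rw [List.foldr_cons, List.foldr_cons, dec_tfc, ih]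

/-- scalar multiples on codes -/
def smc (c m : ℕ) : ℕ := forceN m fun m' => enc (ofN c • dec m')

theorem dec_smc (c m : ℕ) : dec (smc c m) = ofN c • dec m := by
  rw [smc, forceN_eq, dec_enc]

/-- sums on codes -/
def addc (m k : ℕ) : ℕ := forceN m fun m' => forceN k fun k' => enc (dec m' + dec k')

theorem dec_addc (m k : ℕ) : dec (addc m k) = dec m + dec k := by
  rw [addc, forceN_eq, forceN_eq, dec_enc]

theorem dec_zero : dec 0 = 0 := by
  funext i
  simp [dec]
  rfl

/-- the subspace spanned by the vectors with the given codes (the second components give the pivots) -/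
def Pl (l : List (ℕ × ℕ)) : Submodule K25 VV := Submodule.span K25 {y | ∃ e ∈ l, y = dec e.1}

/-- the linear combination of the basis with the coefficients read off at the pivots -/
def combo (y : ℕ) (l : List (ℕ × ℕ)) : ℕ :=
  List.rec 0 (fun e _ ih => addc (smc (Nat.mod (Nat.div y e.2) 25) e.1) ih) l

theorem Pl_mono {e : ℕ × ℕ} {l : List (ℕ × ℕ)} : Pl l ≤ Pl (e :: l) := by
  apply Submodule.span_mono
  rintro y ⟨e', he', rfl⟩
  exact ⟨e', List.mem_cons_of_mem _ he', rfl⟩

theorem dec_combo_mem (y : ℕ) (l : List (ℕ × ℕ)) : dec (combo y l) ∈ Pl l := by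
  induction l with
  | nil =>
    have : combo y [] = 0 := rfl
    rw [this, dec_zero]
    exact Submodule.zero_mem _
  | cons e l ih =>
    have : combo y (e :: l) = addc (smc (Nat.mod (Nat.div y e.2) 25) e.1) (combo y l) := rfl
    rw [this, dec_addc, dec_smc]
    apply Submodule.add_mem
    · apply Submodule.smul_mem
      exact Submodule.subset_span ⟨e, List.mem_cons_self, rfl⟩
    · exact Pl_mono ih

/-- membership test -/
def memc (y : ℕ) (l : List (ℕ × ℕ)) : Bool := forceN y fun y' => Nat.beq y' (combo y' l)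

theorem mem_of_memc {y : ℕ} {l : List (ℕ × ℕ)} (h : memc y l = true) : dec y ∈ Pl l := by
  rw [memc, forceN_eq] at h
  have h2 : y = combo y l := Nat.eq_of_beq_eq_true h
  rw [h2]
  exact dec_combo_mem y l

/-- a linear map sending the basis of `Pl l` into `Pl l'` sends `Pl l` into `Pl l'` -/
theorem map_Pl (M : Matrix (Fin 3) (Fin 3) K25) {l l' : List (ℕ × ℕ)}
    (h : ∀ e ∈ l, M *ᵥ dec e.1 ∈ Pl l') : ∀ y ∈ Pl l, M *ᵥ y ∈ Pl l' := by
  intro y hy
  unfold Pl at hy
  induction hy using Submodule.span_induction with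
  | mem x hx =>
    obtain ⟨e, he, rfl⟩ := hx
    exact h e he
  | zero => rw [Matrix.mulVec_zero]; exact Submodule.zero_mem _
  | add x y _ _ hx hy => rw [Matrix.mulVec_add]; exact Submodule.add_mem _ hx hy
  | smul a x _ hx => rw [Matrix.mulVec_smul]; exact Submodule.smul_mem _ a hx

/-- vectors of `Pl l` are orthogonal to the vectors orthogonal to the basis -/
theorem hf_Pl {l : List (ℕ × ℕ)} {z : VV} (h : ∀ e ∈ l, hf (dec e.1) z = 0) : ∀ y ∈ Pl l, hf y z = 0 := by
  intro y hy
  unfold Pl at hy
  induction hy using Submodule.span_induction with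
  | mem x hx =>
    obtain ⟨e, he, rfl⟩ := hx
    exact h e he
  | zero => exact hermForm_zero_left z
  | add x y _ _ hx hy => rw [hf, hermForm_add_left]; rw [hf] at hx hy; rw [hx, hy, add_zero]
  | smul a x _ hx => rw [hf, hermForm_smul_left]; rw [hf] at hx; rw [hx, mul_zero]

end Cfsg.Agent.Lib.Helper54.U3
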