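/-
Helper library (helper54): all non-zero isotropic vectors are images of the first centre under words in the transvections
of `U4Data`.
-/
import Cfsg.Agent.Lib.Helper54.U4Data

set_option autoImplicit false

namespace Cfsg.Agent.Lib.Helper54.U4

open Matrix Cfsg.Agent.Lib.Helper5 Cfsg.Agent.Lib.Helper13 Cfsg.Agent.Lib.Helper27
open Cfsg.Agent.Lib.Helper54.U6 (forceN forceN_eq orL orL_eq anyL anyL_iff)

set_option maxRecDepth 100000 in
theorem wtab_eval : wtab.map (fun l => l.foldr tfc 1282) = isoList := by decide +kernel

set_option maxRecDepth 100000 in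
theorem wtab_letters : allList (fun l : List ℕ => allList (fun a => anyL (fun b => Nat.beq a b) ga) l) wtab = true := by
  decide +kernel

set_option maxRecDepth 100000 in
theorem iso_complete : allBelow (fun m => orL (Nat.beq m 0) (orL (decide (hf (dec m) (dec m) ≠ 0))
    (anyL (fun b => Nat.beq m b) isoList))) 6561 = true := by
  decide +kernel

end Cfsg.Agent.Lib.Helper54.U4
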