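/-
Helper library (helper54): the checks of equivariance for the generators of the stabiliser of v0 and wA, part A.
-/
import Cfsg.Agent.Lib.Helper54.U6Check

set_option autoImplicit false

namespace Cfsg.Agent.Lib.Helper54.U6

set_option maxRecDepth 100000 in
theorem chk0 : chkGen (gens.getD 0 ((0, []), 0)) = true := by decide +kernel

set_option maxRecDepth 100000 in
theorem chk1 : chkGen (gens.getD 1 ((0, []), 0)) = true := by decide +kernel

end Cfsg.Agent.Lib.Helper54.U6
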