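/-
Helper library (helper54): all non-zero isotropic vectors are images of the first centre under words in the six transvections.
-/
import Cfsg.Agent.Lib.Helper54.U6Data

set_option autoImplicit false

namespace Cfsg.Agent.Lib.Helper54.U6

open Matrix Cfsg.Agent.Lib.Helper5 Cfsg.Agent.Lib.Helper13 Cfsg.Agent.Lib.Helper40.U6 Cfsg.Agent.Lib.Helper27

set_option maxRecDepth 100000 in
theorem wtab_eval : wtab.map (fun l => l.foldr tfc 1825) = isoList := by decide +kernel

set_option maxRecDepth 100000 in
theorem wtab_letters : allList (fun l : List ℕ => allList (fun a => anyL (fun b => Nat.beq a b) ga) l) wtab = true := by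
  decide +kernel

set_option maxRecDepth 100000 in
theorem iso_complete : allBelow (fun m => orL (Nat.beq m 0) (orL (decide (hf (dec m) (dec m) ≠ 0))
    (anyL (fun b => Nat.beq m b) isoList))) 4096 = true := by
  decide +kernel

end Cfsg.Agent.Lib.Helper54.U6
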